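import Cfsg.Agent.B84H.A
import Cfsg.Agent.B84C.B
import Cfsg.Agent.B84.LocC

/-! # The number of involutions modulo the order of a Sylow `2`-subgroup -/

set_option autoImplicit false
set_option linter.unusedSectionVars false

namespace Cfsg.Agent.B84H

open Cfsg Cfsg.Agent.GT Cfsg.Agent.Char Cfsg.Agent.BS Cfsg.Agent.B84 Subgroup Finset
open scoped Classical

universe u

variable {G : Type u} [Group G] [Fintype G] {t : G}

/-- Burnside's lemma for the conjugation action on an invariant set. -/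
theorem burn (S : Subgroup G) (X : Finset G) (hX : ∀ y ∈ S, ∀ x ∈ X, y * x * y⁻¹ ∈ X) :
    Nat.card S ∣ ∑ y with y ∈ S, #{x ∈ X | Commute y x} := by
  let _ : MulAction S X :=
    { smul y x := ⟨y * x * y.1⁻¹, hX _ y.2 _ x.2⟩
      one_smul x := Subtype.ext (show (1 : G) * x * 1⁻¹ = x by simp)
      mul_smul y z x := Subtype.ext (show (y * z : G) * x * (y * z : G)⁻¹ = y * (z * x * z.1⁻¹) * y.1⁻¹ by group) }
  have := MulAction.sum_card_fixedBy_eq_card_orbits_mul_card_group S X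
  rw [Nat.card_eq_fintype_card, sum_subtype (p := (· ∈ S)) _ (by simp)]
  refine Dvd.intro_left _ (this.symm.trans (sum_congr rfl fun y _ => ?_))
  rw [Fintype.card_subtype]
  exact card_bij (fun x _ => x.1) (fun x hx => mem_filter.2 ⟨x.2, TT.commute_iff_conj.2
    (congrArg Subtype.val (mem_filter.1 hx).2)⟩) (fun _ _ _ _ => Subtype.ext) fun x hx =>
    ⟨⟨x, (mem_filter.1 hx).1⟩, mem_filter.2 ⟨mem_univ _, Subtype.ext (TT.commute_iff_conj.1 (mem_filter.1 hx).2)⟩, rfl⟩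

theorem card_cl (t : G) [DecidablePred (IsConj t ·)] : #{s | IsConj t s} = C1[t].index := by
  have := Cls.sum_ite_isConj t
  rw [sum_boole] at this
  exact_mod_cast this

theorem two_adic (tt : t * t = 1) (t1 : t ≠ 1) (cj : ∀ s : G, s * s = 1 → s ≠ 1 → IsConj t s)
    (two : ∀ s y : G, s * s = 1 → s ≠ 1 → s ≠ t → Commute s t → Commute y t → Commute y s → ∀ k, y ^ 2 ^ k = 1 →
      y = 1 ∨ y = t ∨ y = s ∨ y = t * s) {κ : ℕ} (hκ : #{s ∈ ({s | IsConj t s} : Finset G) | Commute t s} = κ + 1)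
    (h4 : 4 ∣ κ) {S : Subgroup G} (hS : IsPGroup 2 S) (ht : t ∈ S) (le : S ≤ C1[t]) :
    (Nat.card S : ℤ) ∣ C1[t].index - 1 + κ := by
  have inv : ∀ {s}, IsConj t s → s * s = 1 ∧ s ≠ 1 := fun h => by
    obtain ⟨c, rfl⟩ := isConj_iff.1 h
    exact ⟨by rw [conj_mul, tt, mul_one, mul_inv_cancel], by simpa using t1⟩
  have p2 : ∀ y ∈ S, ∃ k, y ^ 2 ^ k = 1 := fun y hy => (hS ⟨y, hy⟩).imp fun k e => congrArg Subtype.val e
  set I : Finset G := {s | IsConj t s ∧ s ∈ S ∧ s ≠ t}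
  have b1 := burn S I fun y hy x hx => by
    simp only [I, mem_filter, mem_univ, true_and] at hx ⊢
    exact ⟨hx.1.trans (isConj_iff.2 ⟨y, rfl⟩), mul_mem (mul_mem hy hx.2.1) (inv_mem hy), fun e => hx.2.2 (by
      rw [← mul_right_inj y, ← mul_left_inj y⁻¹, e, mem_cent1.1 (le hy), mul_inv_cancel_right])⟩
  have e1 : ∑ y with y ∈ S, #{x ∈ I | Commute y x} = 4 * #I := by
    simp only [card_filter]
    rw [sum_comm, mul_comm, ← smul_eq_mul, ← sum_const]
    refine sum_congr rfl fun s hs => ?_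
    obtain ⟨s0, s1, s2⟩ := (mem_filter.1 hs).2
    have c : Commute s t := mem_cent1.1 (le s1)
    have n := (inv s0).2
    have n' : t * s ≠ 1 := fun e => s2 (by rw [← mul_right_inj t, e, tt])
    rw [← card_filter, show ({y ∈ ({y | y ∈ S} : Finset G) | Commute y s} : Finset G) = {1, t, s, t * s} from ?_,
      card_insert_of_notMem (by simp [eq_comm, *]), card_insert_of_notMem (by simp [*, s2.symm]),
      card_pair (by simp [*])]
    ext y
    simp only [mem_filter, mem_univ, true_and, mem_insert, mem_singleton]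
    refine ⟨fun e => (p2 y e.1).elim (two s y (inv s0).1 n s2 c (mem_cent1.1 (le e.1)) e.2), ?_⟩
    rintro (rfl | rfl | rfl | rfl)
    exacts [⟨one_mem _, Commute.one_left _⟩, ⟨ht, c.symm⟩, ⟨s1, rfl⟩,
      ⟨mul_mem ht s1, c.symm.mul_left (Commute.refl _)⟩]
  have b2 := burn S {s | IsConj t s} fun y _ x hx => by
    simp only [mem_filter, mem_univ, true_and] at hx ⊢
    exact hx.trans (isConj_iff.2 ⟨y, rfl⟩)
  have e2 : ∀ y ∈ ({y | y ∈ S} : Finset G), (#{x ∈ ({s | IsConj t s} : Finset G) | Commute y x} : ℤ) =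
      1 + ((if y = 1 then (C1[t].index : ℤ) - 1 else 0) + if IsConj t y then (κ : ℤ) else 0) := fun y hy => by
    replace hy := (mem_filter.1 hy).2
    by_cases y1 : y = 1
    · rw [y1, filter_true_of_mem fun x _ => Commute.one_left x, card_cl]; simp [t1]
    by_cases y2 : IsConj t y
    · obtain ⟨c, rfl⟩ := isConj_iff.1 y2
      rw [if_neg y1, if_pos y2, zero_add, add_comm, ← Nat.cast_add_one, ← hκ]
      refine congrArg _ (card_bij (fun x _ => c * x * c⁻¹) (fun x hx => ?_) (fun _ _ _ _ e => by simpa using e)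
        fun x hx => ⟨c⁻¹ * x * c, ?_, by group⟩).symm
      · simp only [mem_filter, mem_univ, true_and] at hx ⊢
        exact ⟨hx.1.trans (isConj_iff.2 ⟨c, rfl⟩), (TT.commute_conj_iff c).2 hx.2⟩
      · simp only [mem_filter, mem_univ, true_and] at hx ⊢
        exact ⟨hx.1.trans (isConj_iff.2 ⟨c⁻¹, by group⟩), (TT.commute_conj_iff c).1 (by simpa [mul_assoc] using hx.2)⟩
    have c : Commute y t := mem_cent1.1 (le hy)
    obtain ⟨k, hk⟩ := p2 y hy
    have a : ∀ s : G, s * s = 1 → s ≠ 1 → Commute s t → Commute y s → s = t := fun s s1 s2 s3 s4 => by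
      by_contra n
      refine y2 (cj y ?_ y1)
      rcases two s y s1 s2 n s3 c s4 k hk with e | e | e | e <;> rw [e]
      exacts [one_mul 1, tt, s1, by rw [mul_assoc, ← mul_assoc s, s3.eq, mul_assoc, s1, mul_one, tt]]
    obtain ⟨j, hj⟩ := exists_pow_invol (g := y) fun o => y1 (by
      rw [← constt_of_piNat ((piNat_single_pow Nat.prime_two k).of_dvd (orderOf_dvd_of_pow_eq_one hk)),
        constt_of_piNat_compl (piNat_two_compl.2 o)])
    have b := a _ (mul_self_of_orderOf hj) (ne_one_of_orderOf_two hj) (c.pow_left j) (Commute.self_pow y j)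
    rw [if_neg y1, if_neg y2, show ({x ∈ ({s | IsConj t s} : Finset G) | Commute y x} : Finset G) = {t} from ?_]
    · simp
    ext s
    simp only [mem_filter, mem_univ, true_and, mem_singleton]
    exact ⟨fun e => a s (inv e.1).1 (inv e.1).2 (b ▸ (e.2.pow_left j).symm) e.2, by rintro rfl; exact ⟨.refl _, c⟩⟩
  have e3 : ({y ∈ ({y | y ∈ S} : Finset G) | IsConj t y} : Finset G) = insert t I := by
    ext s
    simp only [I, mem_filter, mem_univ, true_and, mem_insert]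
    exact ⟨fun e => (em _).imp_right fun n => ⟨e.2, e.1, n⟩, fun e => e.elim (by rintro rfl; exact ⟨ht, .refl _⟩)
      fun e => ⟨e.2.1, e.1⟩⟩
  rw [e1] at b1
  replace b2 := Int.natCast_dvd_natCast.2 b2
  rw [Nat.cast_sum, sum_congr rfl e2, sum_add_distrib, sum_add_distrib, sum_ite_eq', ← sum_filter, e3, sum_const,
    sum_const, card_insert_of_notMem (by simp [I]), ← Fintype.card_subtype, ← Nat.card_eq_fintype_card,
    if_pos (by simp [one_mem])] at b2
  obtain ⟨κ, rfl⟩ := h4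
  have := dvd_sub (dvd_sub b2 dvd_rfl) ((Int.natCast_dvd_natCast.2 b1).mul_right κ)
  simp only [nsmul_eq_mul] at this
  push_cast at this ⊢
  exact this.trans (dvd_of_eq (by ring))

section

variable {F : Type*} [Field F] [Fintype F] {φ : GL (Fin 2) F →* G} {g : G}

theorem q3 (h : Hy φ g) : Q3 (φ (dg (-1) (-1))) (φ (dg 1 (-1))) g :=
  ⟨Hy.t_sq (by simp) (by simp), h.t1_ne, Hy.T_comm, h.g1, by rw [h.g2, ← map_mul, dg_mul]; simp⟩

theorem pow_half (h : Odd (Fintype.card F)) (a : Fˣ) :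
    a ^ (Fintype.card F / 2) = 1 ∨ a ^ (Fintype.card F / 2) = -1 :=
  (Units.inv_eq_self_iff _).1 (inv_eq_of_mul_eq_one_right (by
    rw [← pow_add, show _ + _ = Fintype.card Fˣ by rw [Fintype.card_units]; obtain ⟨k, e⟩ := h; omega,
      pow_card_eq_one]))

theorem two_T (h : Hy φ g) (h4 : Fintype.card F % 4 = 3) {a b : Fˣ} {k : ℕ} (e : φ (dg a b) ^ 2 ^ k = 1) :
    φ (dg a b) = 1 ∨ φ (dg a b) = φ (dg (-1) (-1)) ∨ φ (dg a b) = φ (dg 1 (-1)) ∨
      φ (dg a b) = φ (dg (-1) (-1)) * φ (dg 1 (-1)) := by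
  have Q := q3 h
  have m : φ (dg a b) ^ (Fintype.card F / 2) ∈ Q.ψ.range := by
    rw [← map_pow, dg_pow, Q.mem_U, ← map_mul, dg_mul]
    rcases pow_half h.odd a with e | e <;> rcases pow_half h.odd b with e' | e' <;> simp [e, e', dg_one]
  exact Q.mem_U.1 (zpowers_le.2 m (mem_zpowers_pow_odd ((piNat_single_pow Nat.prime_two k).of_dvd
    (orderOf_dvd_of_pow_eq_one e)) (Nat.odd_iff.2 (by omega))))

theorem card_inv (h : Hy φ g) : #{s ∈ ({s | IsConj (φ (dg (-1) (-1))) s} : Finset G) | Commute (φ (dg (-1) (-1))) s} =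
    Fintype.card F * (Fintype.card F + 1) + 1 := by
  have Q := q3 h
  have c : #{A : GL (Fin 2) F | IsConj (dg 1 (-1)) A} = Fintype.card F * (Fintype.card F + 1) := by
    rw [card_cl]; exact_mod_cast B84C.index_u h.neg_ne
  have d : ∀ B : GL (Fin 2) F, Matrix.GeneralLinearGroup.det (B * dg 1 (-1) * B⁻¹) = -1 := fun B => by
    simp [det_dg]
  rw [← c, ← card_image_of_injOn (f := φ), ← card_insert_of_notMem (a := φ (dg (-1) (-1)))]
  · congr 1
    ext s
    simp only [mem_filter, mem_univ, true_and, mem_insert, mem_image]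
    constructor
    · rintro ⟨e1, e2⟩
      obtain ⟨A, rfl⟩ := h.cent.1 e2.symm
      obtain ⟨c, e⟩ := isConj_iff.1 e1
      exact (h.invol (by rw [← e, conj_mul, Q.tt, mul_one, mul_inv_cancel]) (by simpa [← e] using Q.t1)).imp_right
        fun ⟨B, n⟩ => ⟨_, isConj_iff.2 ⟨B, rfl⟩, by rw [n, map_mul, map_mul, map_inv]⟩
    · rintro (rfl | ⟨A, e, rfl⟩)
      exacts [⟨.refl _, .refl _⟩, ⟨Q.cu.trans (φ.map_isConj e), (h.cent.2 ⟨A, rfl⟩).symm⟩]
  · simp only [mem_filter, mem_univ, true_and, mem_image, isConj_iff]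
    rintro ⟨_, ⟨B, rfl⟩, e⟩
    rw [map_mul, map_mul, map_inv, mul_inv_eq_iff_eq_mul, ← (h.cent.2 ⟨B, rfl⟩).eq, mul_right_inj] at e
    exact Q.ne e
  · intro A hA B hB e
    obtain ⟨A, rfl⟩ := isConj_iff.1 (mem_filter.1 hA).2
    obtain ⟨B, rfl⟩ := isConj_iff.1 (mem_filter.1 hB).2
    exact mul_inv_eq_one.1 (h.ker_det (by rw [map_mul φ, e, map_inv, mul_inv_cancel])
      (by rw [map_mul, map_inv, d, d, mul_inv_cancel]))

theorem odd_ker (h : Hy φ g) : Odd (Nat.card φ.ker) := Nat.not_even_iff_odd.1 fun e => by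
  obtain ⟨A, hA, o⟩ := exists_mem_orderOf_eq Nat.prime_two (even_iff_two_dvd.1 e)
  obtain ⟨c, ⟨k, hk⟩, rfl⟩ := h.ker A hA
  have := mul_self_of_orderOf o
  rw [dg_mul, ← dg_one, dg_inj] at this
  have p := pow_orderOf_eq_one c
  rw [hk, pow_succ, pow_mul, sq, this.1, one_pow, one_mul] at p
  rw [p, dg_one, orderOf_one] at o
  omega

/-- (H1) -/
theorem H1 (h : Hy φ g) (h4 : Fintype.card F % 4 = 3) {k : ℕ} (hk : 2 ^ k ∣ Fintype.card F + 1) :
    (4 * 2 ^ k : ℤ) ∣ C1[φ (dg (-1) (-1))].index - 1 + Fintype.card F * (Fintype.card F + 1) := by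
  have Q := q3 h
  obtain ⟨S, hS, le⟩ := exists_syl_ge (M := C1[φ (dg (-1) (-1))]) (Q := zpowers (φ (dg (-1) (-1)))) Nat.prime_two
    (PG.isPGroup_zpowers_of_pow_eq_one (k := 1) (by rw [pow_one, sq, Q.tt])) (zpowers_le.2 (self_mem_cent1 _))
  have := two_adic Q.tt Q.t1 (fun s => h.conj_t) (fun s y s1 s2 s3 s4 y1 y2 k e => ?_) (card_inv h)
    (Dvd.dvd.mul_left (by omega) _) (syl_isPGroup Nat.prime_two hS) (le (mem_zpowers _)) hS.le
  · refine Dvd.dvd.trans ?_ (by exact_mod_cast this)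
    have c := h.card_H
    rw [B84C.card_GL, Nat.card_prod, Nat.card_eq_fintype_card (α := Fˣ), Fintype.card_units] at c
    have d : 2 ^ (k + 2) ∣ Nat.card C1[φ (dg (-1) (-1))] := (Nat.Coprime.pow_left _ (Nat.coprime_two_left.2
      (odd_ker h))).dvd_of_dvd_mul_right (by
        rw [c, pow_add, sq]
        exact mul_dvd_mul hk ((mul_dvd_mul (by omega) (by omega)).mul_right _))
    have := hS.dvd_card (piNat_single_pow Nat.prime_two _) d
    rw [pow_add, mul_comm] at this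
    exact_mod_cast this
  obtain ⟨A, rfl⟩ := h.cent.1 s4
  obtain ⟨B, n⟩ := (h.invol s1 s2).resolve_left s3
  have c := TT.commute_iff_conj.1 (h.cent.2 ⟨B, rfl⟩)
  obtain ⟨y, rfl⟩ : ∃ z, y = φ B * z * (φ B)⁻¹ := ⟨(φ B)⁻¹ * y * φ B, by group⟩
  rw [n, TT.commute_conj_iff] at y2
  rw [← c, TT.commute_conj_iff] at y1
  obtain ⟨a, b, rfl⟩ := h.cent_U.1 ⟨y1, y2⟩
  rw [conj_pow, conj_eq_one_iff] at e
  rw [n, ← c, conj_mul]
  rcases two_T h h4 e with e | e | e | e <;> simp [e]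

omit [Fintype G] in
theorem exists_c {q n a : ℤ} (hq : 2 ≤ q) (e : n * (a - q) ^ 2 = q * (q + 1) ^ 2 * (q - 1) * a * (a - 1)) :
    ∃ c, c * (a - q) = q * (q ^ 2 - 1) ∧ n = (q ^ 2 - 1 + c) * (q ^ 2 + q + c) := by
  have d0 : a - q ≠ 0 := fun k => by
    obtain rfl : a = q := by omega
    have : 0 < a * (a + 1) ^ 2 * (a - 1) * a * (a - 1) := by
      have : 0 < a - 1 := by omega
      positivity
    rw [← e] at this; simp at this
  obtain ⟨c, hc⟩ : a - q ∣ 2 * (q * (q ^ 2 - 1)) + (2 * q ^ 2 + q - 1) * (a - q) :=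
    (Int.pow_dvd_pow_iff two_ne_zero).1 ⟨(q + 1) ^ 2 + 4 * n, by linear_combination -4 * e⟩
  have k : c ^ 2 = (q + 1) ^ 2 + 4 * n := mul_left_cancel₀ (pow_ne_zero 2 d0) (by
    rw [← mul_pow, ← hc]; linear_combination -4 * e)
  obtain ⟨b, hb⟩ : Even (c - (q + 1)) := by
    rw [Int.even_sub, ← Int.even_pow' (m := c) two_ne_zero, k, Int.even_add, Int.even_pow' two_ne_zero]
    simp [show Even (4 : ℤ) by decide]
  obtain rfl : c = 2 * b + (q + 1) := by omega
  refine ⟨b - (q ^ 2 - 1), ?_, ?_⟩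
  · exact mul_left_cancel₀ two_ne_zero (by linear_combination -hc)
  · exact mul_left_cancel₀ four_ne_zero (by linear_combination -k)

/-- The four small fields. -/
theorem small (h : Hy φ g) (hq : Fintype.card F = 3 ∨ Fintype.card F = 7 ∨ Fintype.card F = 11 ∨ Fintype.card F = 31)
    {a : ℤ} (e : (C1[φ (dg (-1) (-1))].index : ℤ) * (a - Fintype.card F) ^ 2 =
      Fintype.card F * (Fintype.card F + 1) ^ 2 * (Fintype.card F - 1) * a * (a - 1)) :
    ringChar F ∣ C1[φ (dg (-1) (-1))].index := by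
  by_contra n
  have m := h.index_mod_p n
  have p : ringChar F = Fintype.card F := (Nat.prime_dvd_prime_iff_eq Hy.prime_p (by
    rcases hq with q | q | q | q <;> rw [q] <;> norm_num)).1 ((ringChar.spec F _).1 (FiniteField.cast_card_eq_zero F))
  rw [p] at m
  replace m := congrArg (Nat.cast : ℕ → ℤ) m
  rw [Int.natCast_mod] at m
  obtain ⟨c, e1, e2⟩ := exists_c (by omega) e
  have o := (Int.odd_coe_nat _).2 h.odd_index
  have H := @H1 _ _ _ _ _ _ _ _ h (by omega)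
  have k : ∀ (j : ℕ) (r : ℤ), 0 < r → Odd c → c * (a - Fintype.card F) = 2 ^ j * r → c ∈ Icc (-r) r ∧ c ∣ r :=
    fun j r r0 o e => by
      have := (IsCoprime.pow_right (Int.isCoprime_two_right.2 o)).dvd_of_dvd_mul_left (Dvd.intro _ e)
      exact ⟨mem_Icc.2 (abs_le.1 (Int.le_of_dvd r0 ((abs_dvd _ _).2 this))), this⟩
  rw [e2] at o H m
  replace o := (Int.odd_mul.1 o).1
  rcases hq with q | q | q | q <;> rw [q] at H o e1 k m
  · obtain ⟨k1, k2⟩ := k 3 3 (by norm_num) (by grind) e1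
    exact (show ∀ c ∈ Icc (-3 : ℤ) 3, c ∣ 3 → 16 ∣ (8 + c) * (12 + c) - 1 + 12 → (8 + c) * (12 + c) % 3 ≠ 1 by
      decide +kernel) c k1 k2 (H (k := 2) (by norm_num)) m
  · obtain ⟨k1, k2⟩ := k 4 21 (by norm_num) (by grind) e1
    exact (show ∀ c ∈ Icc (-21 : ℤ) 21, c ∣ 21 → 32 ∣ (48 + c) * (56 + c) - 1 + 56 → (48 + c) * (56 + c) % 7 ≠ 1 by
      decide +kernel) c k1 k2 (H (k := 3) (by norm_num)) m
  · obtain ⟨k1, k2⟩ := k 3 165 (by norm_num) (by grind) e1
    exact (show ∀ c ∈ Icc (-165 : ℤ) 165, c ∣ 165 → 16 ∣ (120 + c) * (132 + c) - 1 + 132 →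
      (120 + c) * (132 + c) % 11 ≠ 1 by decide +kernel) c k1 k2 (H (k := 2) (by norm_num)) m
  · obtain ⟨k1, k2⟩ := k 6 465 (by norm_num) (by grind) e1
    exact (show ∀ c ∈ Icc (-465 : ℤ) 465, c ∣ 465 → 128 ∣ (960 + c) * (992 + c) - 1 + 992 →
      (960 + c) * (992 + c) % 31 ≠ 1 by decide +kernel) c k1 k2 (H (k := 5) (by norm_num)) m

end

end Cfsg.Agent.B84H
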