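import Cfsg.Agent.B84H.B
import Cfsg.Agent.B84H.D
import Cfsg.Agent.B84V.C

/-! # The last case: the odd part of the torus is centralized by the rotation -/

set_option autoImplicit false
set_option linter.unusedSectionVars false

namespace Cfsg.Agent.B84H

open Cfsg Cfsg.Agent.GT Cfsg.Agent.Cl Cfsg.Agent.Char Cfsg.Agent.B84 Cfsg.Agent.B84C Subgroup
open scoped Classical

theorem ar1 {P R j N : ℤ} (p : 0 < P) (h1 : 103 * R ≤ 120 * P) (h2 : 103 * P ≤ 105 * R) (e : P * j ^ 2 = N * R)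
    (j0 : 0 ≤ j) (hN : N = 12 ∨ N = 60) : 16 * P = 15 * R := by
  have k1 : 103 * j ^ 2 ≤ 120 * N := le_of_mul_le_mul_left (by rcases hN with rfl | rfl <;> nlinarith) p
  have k2 : 103 * N ≤ 105 * j ^ 2 := le_of_mul_le_mul_left (by rcases hN with rfl | rfl <;> nlinarith) p
  have k3 : j < 9 := by rcases hN with rfl | rfl <;> nlinarith
  rcases hN with rfl | rfl <;> interval_cases j <;> omega

theorem ar2 {q b j N : ℤ} (hq : 15 ≤ q) (h4 : q % 4 = 3) (hb : 7 * q - 1 ≤ |b|) (d : q ∣ b + 1 ∨ q ∣ b)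
    (e : (b - 1) * (q - 1) * j ^ 2 = N * ((b + 1) * (q + 1))) (j0 : 0 ≤ j) (hN : N = 12 ∨ N = 60) : False := by
  have k : 16 * ((b - 1) * (q - 1)) = 15 * ((b + 1) * (q + 1)) := by
    rcases le_abs'.1 hb with l | l
    · have := ar1 (P := (1 - b) * (q - 1)) (R := (-b - 1) * (q + 1)) (mul_pos (by omega) (by omega)) (by nlinarith)
        (by nlinarith) (by linear_combination -e) j0 hN
      linear_combination -this
    · exact ar1 (mul_pos (by omega) (by omega)) (by nlinarith) (by nlinarith) e j0 hN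
  have : q ∣ 32 := by
    rcases d with ⟨c, d⟩ | ⟨c, d⟩
    · exact ⟨32 - (q - 31) * c, by linear_combination k - (q - 31) * d⟩
    · exact Dvd.dvd.mul_left (⟨31 - (q - 31) * c, by linear_combination k - (q - 31) * d⟩ : q ∣ 1) 32
  have l := Int.le_of_dvd (by norm_num) this
  interval_cases q <;> omega

variable {F G : Type*} [Field F] [Fintype F] [Group G] [Fintype G] {φ : GL (Fin 2) F →* G} {g : G}

/-- the torus of the special linear group -/
noncomputable def ψ1 (φ : GL (Fin 2) F →* G) : Fˣ →* G :=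
  φ.comp (dgH.comp ((MonoidHom.id _).prod (invMonoidHom)))

theorem ψ1_apply (a : Fˣ) : ψ1 φ a = φ (dg a a⁻¹) := rfl

theorem exists_hs (h : Hy φ g) (hq : Fintype.card F % 4 = 3) (hD : D1 φ g)
    (hc : ∀ a b, Odd (orderOf (φ (dg a b))) → Commute g (φ (dg a b))) :
    ∃ v, orderOf v = (Fintype.card F - 1) / 2 ∧ v ∈ Tor φ ∧ HS (φ (dg (-1) (-1))) (φ (dg 1 (-1))) g (φ ww) v := by
  obtain ⟨γ, hγ⟩ := IsCyclic.exists_generator (α := Fˣ)
  have inj : Function.Injective (ψ1 φ) := (injective_iff_map_eq_one _).2 fun a e =>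
    (dg_inj.1 ((h.ker_det (A := dg a a⁻¹) e (by rw [det_dg, mul_inv_cancel])).trans dg_one.symm)).1
  have o : orderOf (ψ1 φ (γ ^ 2)) = (Fintype.card F - 1) / 2 := by
    have := orderOf_eq_card_of_forall_mem_zpowers hγ
    rw [Nat.card_eq_fintype_card, Fintype.card_units] at this
    rw [orderOf_injective _ inj, orderOf_pow_of_dvd two_ne_zero (by omega), this]
  have oo : Odd (orderOf (ψ1 φ (γ ^ 2))) := o ▸ Nat.odd_iff.2 (by omega)
  have Q := q3 h
  refine ⟨_, o, dg_mem _ _, Q, oo, Hy.T_comm, (hc _ _ oo).symm, ?_, ?_⟩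
  · rw [← map_inv, ww_inv, ψ1_apply, ← map_mul, ← map_mul, ww_dg, ← map_inv, dg_inv, inv_inv]
  rw [← MonoidHom.map_zpowers]
  rintro _ ⟨b, -, rfl⟩ - x c ⟨b', -, e⟩
  obtain ⟨A, rfl⟩ := h.cent.1 c
  refine (em (b' = b⁻¹)).symm.imp (fun n => ?_) fun n => by rw [← e, n, map_inv]
  obtain ⟨-, e1, e2, -⟩ := gl2_eq_iff.1 (mul_inv_eq_iff_eq_mul.1
    ((h.conj_iff (B := dg b b⁻¹) (C := dg b' b'⁻¹) (by rw [det_dg, det_dg, mul_inv_cancel, mul_inv_cancel])).1 e.symm))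
  simp only [gl2_mul, dg, gl2mk00, gl2mk01, gl2mk10, gl2mk11, mul_zero, zero_mul, add_zero, zero_add] at e1 e2
  obtain ⟨a1, a2, rfl⟩ := eq_dg (A := A) (by_contra fun k => n (Units.ext (mul_left_cancel₀ k (by rw [e1, mul_comm]))))
    (by_contra fun k => n (inv_eq_iff_eq_inv.1 (Units.ext (mul_left_cancel₀ k (by rw [e2, mul_comm])))))
  have m : φ (dg a1 a2) ^ (Fintype.card F / 2) ∈ Q.ψ.range := by
    rw [← map_pow, dg_pow, Q.mem_U, ← map_mul, dg_mul]
    rcases pow_half h.odd a1 with e | e <;> rcases pow_half h.odd a2 with e' | e' <;> simp [e, e', dg_one]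
  have m4 : φ (dg a1 a2) ^ 4 ∈ (zpowers (γ ^ 2)).map (ψ1 φ) := by
    obtain ⟨k, hk⟩ := hγ (a1 * a2⁻¹)
    refine ⟨(a1 * a2⁻¹) ^ 2, ⟨k, by rw [← hk, ← zpow_natCast, ← zpow_natCast, zpow_comm]⟩, ?_⟩
    rw [← one_mul (ψ1 φ _), ← B84V.sc_sq hq hD hc (a1 * a2), ψ1_apply, ← map_pow, ← map_pow, dg_pow, dg_pow, ← map_mul,
      dg_mul]
    congr 2 <;> ext <;> push_cast <;> field_simp
  obtain ⟨k, hk⟩ : ∃ k, Fintype.card F / 2 = 2 * k + 1 := Nat.odd_iff.2 (by omega)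
  refine ⟨_, pow_mem m (2 * k + 1), _, inv_mem (pow_mem m4 (k * k + k)), ?_⟩
  rw [hk, ← pow_mul, ← pow_mul, show (2 * k + 1) * (2 * k + 1) = 1 + 4 * (k * k + k) by ring, pow_add, pow_one,
    mul_inv_cancel_right]

/-- (H2) together with (H1): the last case of (C4). -/
theorem hard (h : Hy φ g) (hq : Fintype.card F % 4 = 3) (hD : D1 φ g)
    (hc : ∀ a b, Odd (orderOf (φ (dg a b))) → Commute g (φ (dg a b))) :
    ringChar F ∣ C1[φ (dg (-1) (-1))].index := by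
  by_contra nd
  obtain ⟨hm, η, η', a, s1, s2, o1, o2, -, v1, v2, v3, v4, E, a1, a2, z⟩ :=
    B84V.C4_data h hq hD hc (H1 h hq (k := 2) (by omega)) nd
  obtain ⟨v, ov, vT, H⟩ := exists_hs h hq hD hc
  obtain ⟨b, hb, b1, Θ, θ1, θ2, θ3, θ4, θ5, θ6, j, θ7⟩ := H.theta (fun s => h.conj_t) (ov ▸ hm)
  obtain ⟨α, β, sa, sb, e, k⟩ := three_term H.tt θ1 θ2 θ3 θ4 θ5
  have or := θ6 ((fun _ => 1) + (η + η')) (virt_one.add (s1.virt.add s2.virt)).isClassFunction fun y ny m => b1 (by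
    obtain ⟨i, rfl⟩ := m
    refine orderOf_eq_one_iff.1 (Nat.eq_one_of_dvd_coprimes (a := orderOf v) (b := 2 * (Fintype.card F + 1)) ?_
      (orderOf_dvd_of_mem_zpowers hb) (orderOf_dvd_of_pow_eq_one (by
        rw [← zpow_natCast, zpow_comm, zpow_natCast, (z y ny).1, one_zpow])))
    rw [show 2 * (Fintype.card F + 1) = 2 ^ 2 + orderOf v * 4 by omega, Nat.coprime_add_mul_left_right]
    exact (Nat.coprime_two_right.2 H.odd).pow_right 2)
  obtain ⟨γ, hγ, ζ, hζ, e'⟩ : ∃ γ, (γ = α ∨ γ = β) ∧ ∃ ζ, (ζ = η ∨ ζ = η') ∧ γ = -ζ := by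
    by_contra c
    push Not at c
    have p : ∀ {γ ζ}, IsSIrr G γ → IsSIrr G ζ → γ ≠ -ζ → 0 ≤ (⟪γ, ζ⟫).re := fun s s' n => by
      rcases s.ci_cases s' with a | a | a
      exacts [by simp [a.2], absurd a.1 n, by simp [a.2.2]]
    rw [ci_add_right, θ3, e, ci_add_right, ci_add_left, ci_add_left, ci_add_left, ci_add_left, ci_eq_zero_symm o1,
      ci_eq_zero_symm o2] at or
    have := congrArg Complex.re or
    simp only [zero_add, Complex.add_re, Complex.one_re, Complex.zero_re] at this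
    linarith [p sa s1 (c _ (.inl rfl) _ (.inl rfl)), p sa s2 (c _ (.inl rfl) _ (.inr rfl)),
      p sb s1 (c _ (.inr rfl) _ (.inl rfl)), p sb s2 (c _ (.inr rfl) _ (.inr rfl))]
  obtain ⟨x, c, x1, x2, x3, x4, x5⟩ := k γ hγ
  have v0 : v ≠ 1 := fun e => b1 (by simpa [e] using hb)
  have cT : Nat.card (Tor φ) = 4 * orderOf v := by
    obtain ⟨a, b, rfl⟩ := mem_Tor.1 vT
    rw [← H.card_T (mem_zpowers _) v0, ← card_subgroupOf (K := C1[φ (dg a b)]) fun x hx => by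
      obtain ⟨c, d, rfl⟩ := mem_Tor.1 hx; exact mem_cent1.2 Hy.T_comm]
    congr 3
    ext x
    rw [mem_subgroupOf, mem_Tor, ← h.cent_U, mem_cent1]
    exact ⟨fun e => Subtype.ext e.1, fun e => ⟨congrArg Subtype.val e, congrArg Subtype.val
      ((H.q4 (mem_zpowers _) v0).ab x _ e (H.q4 (mem_zpowers _) v0).tu.symm)⟩⟩
  have cG := C1[φ (dg (-1) (-1))].index_mul_card
  nth_rewrite 2 [← h.range] at cG
  rw [h.card_H_T, cT] at cG
  obtain ⟨N, hN, cM⟩ : ∃ N : ℕ, ((N : ℤ) = 12 ∨ (N : ℤ) = 60) ∧ Nat.card C1[v] = N * orderOf v :=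
    (H.card_M (mem_zpowers v) v0).elim (fun e => ⟨12, .inl rfl, e⟩) fun e => ⟨60, .inr rfl, e⟩
  rw [cM, ← cG] at θ7
  have n0 : (C1[φ (dg (-1) (-1))].index : ℤ) ≠ 0 := Nat.cast_ne_zero.2 index_ne_zero_of_finite
  have m0 : (orderOf v : ℤ) ≠ 0 := Nat.cast_ne_zero.2 (orderOf_pos v).ne'
  have qm : (Fintype.card F : ℤ) = 2 * orderOf v + 1 := by omega
  have q15 : (15 : ℤ) ≤ Fintype.card F := by
    by_contra l
    rcases show Fintype.card F = 3 ∨ Fintype.card F = 7 ∨ Fintype.card F = 11 by omega with e | e | e <;>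
      exact hm (by rw [e]; norm_num)
  generalize C1[φ (dg (-1) (-1))].index = n at *
  generalize orderOf v = m at *
  generalize Fintype.card F = q at *
  have Z : x * (x + 1) * (n * (4 * m * (q * (q + 1))) * (m * j) ^ 2) = n ^ 2 * (x - c) ^ 2 * (N * m) := by
    push_cast at θ7
    exact_mod_cast (by rw [← θ7, ← x5]; ring : (x * (x + 1) * (n * (4 * m * (q * (q + 1))) * (m * j) ^ 2) : ℂ) =
      n ^ 2 * (x - c) ^ 2 * (N * m))
  have W : (x - c) ^ 2 = (a - q) ^ 2 → x * (x + 1) * ((q - 1) * j ^ 2) = N * (q + 1) * (a * (a - 1)) := fun r =>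
    mul_left_cancel₀ (show (n * m * m * 2 * (q * (q + 1)) : ℤ) ≠ 0 by positivity) (by
      rw [r] at Z
      linear_combination Z + (n * N * m) * E + (2 * n * m ^ 2 * q * (q + 1) * x * (x + 1) * j ^ 2 +
        n * m * q * (q + 1) ^ 2 * N * a * (a - 1)) * qm)
  rcases hζ with rfl | rfl <;> rw [e', Pi.neg_apply] at x1 x2
  · obtain rfl : x = 1 - a := by exact_mod_cast (by rw [← x1, v1]; ring : (x : ℂ) = 1 - a)
    obtain rfl : c = 1 - q := by exact_mod_cast (by rw [← x2, v2]; ring : (c : ℂ) = 1 - q)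
    exact ar2 (b := a - 1) q15 (by omega) (by rcases abs_cases a with _ | _ <;> rcases abs_cases (a - 1) with _ | _ <;>
      omega) (.inl (by simpa using a1)) (mul_left_cancel₀ x3 (by linear_combination -W (by ring))) j.cast_nonneg hN
  · obtain rfl : x = a := by exact_mod_cast (by rw [← x1, v3]; ring : (x : ℂ) = a)
    obtain rfl : c = q := by exact_mod_cast (by rw [← x2, v4]; ring : (c : ℂ) = q)
    exact ar2 (b := -x) q15 (by omega) (by rw [abs_neg]; omega) (.inr a1.neg_right)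
      (mul_left_cancel₀ x3 (by linear_combination -W rfl)) j.cast_nonneg hN

end Cfsg.Agent.B84H
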